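import Cfsg.Prelude.Def_Transfer
import Cfsg.Agent.Signalizer.Layer
import Cfsg.Agent.Components.FStar
import Cfsg.Agent.Cores.Fitting
import Cfsg.Agent.LocalEven.CoprimeLemmas

/-!
# Subgroups containing a self-centralizing subnormal subgroup of `F*` of a maximal subgroup
-/

namespace Cfsg.Agent.Bender

open Subgroup Components

variable {X : Type*} [Group X] [Finite X]

/-- Powers in a cyclic group: the `p'`-part of an element. -/
theorem eq_one_of_pgroup_of_coprime {p : ℕ} [Fact p.Prime] {H : Subgroup X} (hH : IsPGroup p H)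
    {x : X} (hx : x ∈ H) (hc : ¬ p ∣ orderOf x) : x = 1 := by
  obtain ⟨k, hk⟩ := hH ⟨x, hx⟩
  have h1 : x ^ p ^ k = 1 := congrArg Subtype.val hk
  obtain ⟨j, -, hj⟩ := (Nat.dvd_prime_pow Fact.out).mp (orderOf_dvd_of_pow_eq_one h1)
  rcases j with _ | j
  · exact orderOf_eq_one_iff.mp (by rw [hj, pow_zero])
  · exact absurd (hj ▸ dvd_pow_self p (Nat.succ_ne_zero j)) hc

theorem pCore_inf_eq_bot {r : ℕ} [Fact r.Prime] {s : ℕ} [Fact s.Prime] (hrs : r ≠ s)
    {H K : Subgroup X} (hH : IsPGroup r H) (hK : IsPGroup s K) : H ⊓ K = ⊥ := by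
  refine eq_bot_iff.mpr fun x hx => ?_
  obtain ⟨k, hk⟩ := hK ⟨x, hx.2⟩
  refine eq_one_of_pgroup_of_coprime hH hx.1 fun hr => hrs ?_
  have h1 : r ∣ s ^ k := hr.trans (orderOf_dvd_of_pow_eq_one (congrArg Subtype.val hk))
  exact (Nat.prime_dvd_prime_iff_eq Fact.out Fact.out).mp ((Fact.out : r.Prime).dvd_of_dvd_pow h1)

/-- The hypotheses on `S`. -/
structure Large (S : Subgroup X) : Prop where
  le : S ≤ Cfsg.generalizedFittingSubgroup X
  subnormal : S.IsSubnormal
  cent : Cfsg.generalizedFittingSubgroup X ⊓ centralizer (S : Set X) ≤ S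

variable {S : Subgroup X}

theorem Large.layer_le (h : Large S) : Cfsg.layer X ≤ S := by
  rw [layer_le_iff]
  intro K hK
  rcases component_le_or_commute hK h.subnormal with hle | hc
  · exact hle
  · exact le_trans (le_inf ((component_le_layer hK).trans layer_le_genFitting)
      (commutator_eq_bot_iff_le_centralizer.mp hc)) h.cent

theorem commute_layer_fitting {e f : X} (he : e ∈ Cfsg.layer X) (hf : f ∈ Cfsg.fittingSubgroup X) :
    Commute e f :=
  (mem_centralizer_iff.mp (commutator_eq_bot_iff_le_centralizer.mp layer_centralizes_fitting he) f hf).symm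

theorem commute_pCore {r s : ℕ} [Fact r.Prime] [Fact s.Prime] (hrs : r ≠ s) {a b : X}
    (ha : a ∈ Cfsg.pCore r X) (hb : b ∈ Cfsg.pCore s X) : Commute a b :=
  commute_of_normal_of_disjoint (Cfsg.pCore r X) (Cfsg.pCore s X) inferInstance inferInstance
    (disjoint_iff.mpr (pCore_inf_eq_bot hrs Cores.pCore_isPGroup Cores.pCore_isPGroup)) a b ha hb

/-- An element of `O_s(X)` centralizing `S ∩ O_s(X)` lies in it. -/
theorem Large.cent_pCore (h : Large S) {s : ℕ} [hs : Fact s.Prime] {q : X}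
    (hq : q ∈ Cfsg.pCore s X) (hc : ∀ a ∈ S ⊓ Cfsg.pCore s X, Commute a q) :
    q ∈ S ⊓ Cfsg.pCore s X := by
  refine ⟨h.cent ⟨fitting_le_genFitting (Cores.pCore_le_fittingSubgroup hq), ?_⟩, hq⟩
  have hS : S ≤ centralizer ({q} : Set X) := by
    have h1 := congrArg (Subgroup.map S.subtype) (SigLayer.eq_top_of_le_genFitting h.subnormal h.le)
    rw [Subgroup.map_sup, ← MonoidHom.range_eq_map, range_subtype, SigLayer.fitting_subnormal h.subnormal] at h1
    refine h1.symm.le.trans (sup_le (fun w hw => ?_) fun w hw => ?_)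
    · -- decompose inside the Fitting subgroup
      obtain ⟨hwF, hwS⟩ := hw
      rw [mem_centralizer_singleton_iff]
      have hFle : Cfsg.fittingSubgroup X ≤ Cfsg.pPrimeCore s X ⊔ Cfsg.pCore s X := by
        rw [Cores.fittingSubgroup_eq_iSup_pCore]
        refine iSup_le fun t => ?_
        have : Fact (t : ℕ).Prime := ⟨t.2⟩
        by_cases hts : (t : ℕ) = s
        · rw [hts]; exact le_sup_right
        · refine le_sup_of_le_left (Cores.le_pPrimeCore inferInstance ?_)
          obtain ⟨n, hn⟩ := IsPGroup.iff_card.1 (Cores.pCore_isPGroup (p := (t : ℕ)) (G := X))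
          rw [hn]
          exact Nat.Coprime.pow_left n ((Nat.coprime_primes t.2 hs.out).2 hts)
      have h4 : w ∈ ((Cfsg.pPrimeCore s X ⊔ Cfsg.pCore s X : Subgroup X) : Set X) := hFle hwF
      rw [mul_normal] at h4
      obtain ⟨d, hd, g, hg, rfl⟩ := Set.mem_mul.mp h4
      have hcomm : ∀ u ∈ Cfsg.pCore s X, Commute d u := fun u hu =>
        commute_of_normal_of_disjoint (Cfsg.pPrimeCore s X)
          (Cfsg.pCore s X) inferInstance inferInstance
          (disjoint_iff.mpr (by rw [inf_comm]; exact Cores.pCore_inf_pPrimeCore)) d u hd hu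
      -- `g` is a power of `d * g`
      obtain ⟨k, hk⟩ := IsPGroup.iff_orderOf.mp (Cores.pCore_isPGroup (p := s) (G := X)) ⟨g, hg⟩
      rw [← Subgroup.orderOf_coe] at hk
      have hk : orderOf g = s ^ k := hk
      have hdo : (orderOf d).Coprime (orderOf g) := by
        rw [hk]
        exact Nat.Coprime.pow_right k ((Cores.pPrimeCore_coprime (p := s) (G := X)).coprime_dvd_left
          (Subgroup.orderOf_dvd_natCard _ hd))
      obtain ⟨u, v, huv⟩ := (Nat.isCoprime_iff_coprime.mpr hdo : IsCoprime (orderOf d : ℤ) (orderOf g))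
      have hpow : (d * g) ^ ((orderOf d : ℤ) * u) = g := by
        rw [(hcomm g hg).mul_zpow, zpow_mul, zpow_natCast, pow_orderOf_eq_one, one_zpow, one_mul,
          show (orderOf d : ℤ) * u = 1 + (orderOf g : ℤ) * (-v) by linear_combination huv,
          zpow_add, zpow_one, zpow_mul, zpow_natCast, pow_orderOf_eq_one, one_zpow, mul_one]
      have hgS : g ∈ S := hpow ▸ Subgroup.zpow_mem S hwS _
      rw [mul_assoc, (hc g ⟨hgS, hg⟩).eq, ← mul_assoc, (hcomm q hq).eq, mul_assoc]
    · exact mem_centralizer_singleton_iff.mpr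
        (commute_layer_fitting (layer_map_subnormal_le h.subnormal hw)
          (Cores.pCore_le_fittingSubgroup hq)).eq
  exact mem_centralizer_iff.mpr fun w hw => (mem_centralizer_singleton_iff.mp (hS hw))

/-- The basic step: an `r`-subgroup normalized by `S` centralizes `E(X)` and `O_s(X)` for `s ≠ r`. -/
theorem Large.commute_of_pgroup (h : Large S) {r : ℕ} [Fact r.Prime] {R : Subgroup X}
    (hR : IsPGroup r R) (hSR : S ≤ normalizer (R : Set X)) {x : X} (hx : x ∈ R) :
    (∀ e ∈ Cfsg.layer X, Commute x e) ∧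
      ∀ s : ℕ, s.Prime → s ≠ r → ∀ q ∈ Cfsg.pCore s X, Commute x q := by
  constructor
  · set E := Cfsg.layer X with hE
    have hEn : E.Normal := layer_normal
    set D := E ⊓ R with hD
    have hDE : E ≤ normalizer (D : Set X) := fun e he => mem_normalizer_iff.mpr fun y =>
      and_congr (⟨fun hy => hEn.conj_mem y hy e, fun hy => by
        simpa [mul_assoc] using hEn.conj_mem _ hy e⁻¹⟩) (mem_normalizer_iff.mp (hSR (h.layer_le he)) y)
    have hDsn : D.IsSubnormal :=
      IsSubnormal.trans inf_le_left (normal_subgroupOf_of_le_normalizer hDE).isSubnormal hEn.isSubnormal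
    have hDF : D ≤ Cfsg.fittingSubgroup X :=
      (subnormal_le_pCore hDsn (hR.to_le inf_le_right)).trans Cores.pCore_le_fittingSubgroup
    have key : x ∈ centralizer (E : Set X) := by
      refine SigLayer.perfect_commute_of_central layer_commutator_self fun k hk => ?_
      have hz : k⁻¹ * (x * k * x⁻¹) ∈ D := by
        refine ⟨mul_mem (Subgroup.inv_mem _ hk) (hEn.conj_mem k hk x), ?_⟩
        rw [show k⁻¹ * (x * k * x⁻¹) = (k⁻¹ * x * k⁻¹⁻¹) * x⁻¹ by group]
        exact mul_mem ((mem_normalizer_iff.mp (hSR (h.layer_le (Subgroup.inv_mem _ hk))) x).mp hx) (Subgroup.inv_mem _ hx)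
      refine ⟨_, ?_, by group, hz.1⟩
      exact mem_centralizer_iff.mpr fun e he => (commute_layer_fitting he (hDF hz)).eq
    exact fun e he => (mem_centralizer_iff.mp key e he).symm
  · intro s hs hsr q hq
    have : Fact s.Prime := ⟨hs⟩
    have hPn : ∀ w : X, w ∈ normalizer (Cfsg.pCore s X : Set X) := fun w => by
      rw [normalizer_eq_top_iff.mpr inferInstance]; exact mem_top w
    have hxo : ¬ s ∣ orderOf x := by
      intro hd
      obtain ⟨k, hk⟩ := hR ⟨x, hx⟩
      have h1 : s ∣ r ^ k := hd.trans (orderOf_dvd_of_pow_eq_one (congrArg Subtype.val hk))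
      exact hsr ((Nat.prime_dvd_prime_iff_eq hs Fact.out).mp (hs.dvd_of_dvd_pow h1))
    refine LocalEven.aXb_lemma Cores.pCore_isPGroup
      (Cores.pCore_isPGroup.to_le (inf_le_right : S ⊓ Cfsg.pCore s X ≤ _)) (fun w _ => hPn w)
      (hPn x) hxo (fun a ha => ?_) (fun q hq hqa => ?_) q hq
    · have hd : a * x * a⁻¹ * x⁻¹ ∈ Cfsg.pCore s X ⊓ R := by
        refine ⟨?_, mul_mem ((mem_normalizer_iff.mp (hSR ha.1) x).mp hx) (Subgroup.inv_mem _ hx)⟩
        rw [show a * x * a⁻¹ * x⁻¹ = a * (x * a⁻¹ * x⁻¹) by group]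
        exact mul_mem ha.2 ((mem_normalizer_iff.mp (hPn x) _).mp (Subgroup.inv_mem _ ha.2))
      rw [pCore_inf_eq_bot hsr Cores.pCore_isPGroup hR, mem_bot, mul_inv_eq_one, mul_inv_eq_iff_eq_mul] at hd
      exact hd.symm
    · have hqS := h.cent_pCore hq fun a ha => hqa a ha
      have hd : q * x * q⁻¹ * x⁻¹ ∈ Cfsg.pCore s X ⊓ R := by
        refine ⟨?_, mul_mem ((mem_normalizer_iff.mp (hSR hqS.1) x).mp hx) (Subgroup.inv_mem _ hx)⟩
        rw [show q * x * q⁻¹ * x⁻¹ = q * (x * q⁻¹ * x⁻¹) by group]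
        exact mul_mem hq ((mem_normalizer_iff.mp (hPn x) _).mp (Subgroup.inv_mem _ hq))
      rw [pCore_inf_eq_bot hsr Cores.pCore_isPGroup hR, mem_bot, mul_inv_eq_one, mul_inv_eq_iff_eq_mul] at hd
      exact hd.symm

end Cfsg.Agent.Bender
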