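import Cfsg.Agent.Bender.LargeSubnormal
import Cfsg.Agent.Transfer.Residual
import Cfsg.Prelude.Def_Local

/-!
# Control of `O_p(B)` by a maximal subgroup, `B` containing a large subnormal subgroup of `F*(A)`
-/

namespace Cfsg.Agent.Bender

open Subgroup Components

variable {X : Type*} [Group X] [Finite X]

theorem pCore_center_le {S : Subgroup X} (h : Large S) (s : ℕ) [Fact s.Prime] :
    Cfsg.pCore s X ⊓ centralizer (Cfsg.pCore s X : Set X) ≤ S := by
  intro z hz
  refine h.cent ⟨fitting_le_genFitting (Cores.pCore_le_fittingSubgroup hz.1), ?_⟩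
  have hle : Cfsg.generalizedFittingSubgroup X ≤ centralizer ({z} : Set X) := by
    rw [Cfsg.generalizedFittingSubgroup, Cores.fittingSubgroup_eq_iSup_pCore]
    refine sup_le (fun e he => mem_centralizer_singleton_iff.mpr
      (commute_layer_fitting he (Cores.pCore_le_fittingSubgroup hz.1)).eq) (iSup_le fun t => ?_)
    have : Fact (t : ℕ).Prime := ⟨t.2⟩
    intro u hu
    refine mem_centralizer_singleton_iff.mpr ?_
    by_cases hts : (t : ℕ) = s
    · exact mem_centralizer_iff.mp hz.2 u (hts ▸ hu)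
    · exact (commute_pCore hts hu hz.1).eq
  exact mem_centralizer_iff.mpr fun w hw => (mem_centralizer_singleton_iff.mp (hle (h.le hw)))

theorem pCore_center_ne_bot (s : ℕ) [Fact s.Prime] (hne : Cfsg.pCore s X ≠ ⊥) :
    Cfsg.pCore s X ⊓ centralizer (Cfsg.pCore s X : Set X) ≠ ⊥ := by
  have : Nontrivial (Cfsg.pCore s X) := (nontrivial_iff_ne_bot _).mpr hne
  have hc := IsPGroup.center_nontrivial (Cores.pCore_isPGroup (p := s) (G := X))
  intro hb
  have h1 : (center (Cfsg.pCore s X)).map (Cfsg.pCore s X).subtype = ⊥ := by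
    rw [SigLayer.center_map_subtype, hb]
  exact (nontrivial_iff_ne_bot _).mp hc ((map_eq_bot_iff_of_injective _ (subtype_injective _)).mp h1)

theorem pCore_ne_bot_of_dvd_fitting {p : ℕ} [hp : Fact p.Prime]
    (h : p ∣ Nat.card (Cfsg.fittingSubgroup X)) : Cfsg.pCore p X ≠ ⊥ := by
  intro hb
  have hle : Cfsg.fittingSubgroup X ≤ Cfsg.pPrimeCore p X := by
    rw [Cores.fittingSubgroup_eq_iSup_pCore]
    refine iSup_le fun t => ?_
    have : Fact (t : ℕ).Prime := ⟨t.2⟩
    by_cases hts : (t : ℕ) = p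
    · rw [hts, hb]; exact bot_le
    · refine Cores.le_pPrimeCore inferInstance ?_
      obtain ⟨n, hn⟩ := IsPGroup.iff_card.1 (Cores.pCore_isPGroup (p := (t : ℕ)) (G := X))
      rw [hn]
      exact Nat.Coprime.pow_left n ((Nat.coprime_primes t.2 hp.out).2 hts)
  exact (Nat.Prime.coprime_iff_not_dvd hp.out).mp
    (Cores.pPrimeCore_coprime (p := p) (G := X)).symm (h.trans (card_dvd_of_le hle))

/-- An element commuting with the `p'`-elements of `E(X)` commutes with `E(X)`. -/
theorem layer_le_of_pPrime_elements {p : ℕ} [hp : Fact p.Prime] {C : Subgroup X}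
    (h : ∀ e ∈ Cfsg.layer X, ¬ p ∣ orderOf e → e ∈ C) : Cfsg.layer X ≤ C := by
  set E := Cfsg.layer X with hE
  have hR : Cfsg.pResidual p E = ⊤ := by
    set W := Cfsg.pResidual p E with hW
    have hnil : Group.IsNilpotent (E ⧸ W) := (Transfer.isPGroup_quotient_pResidual (G := E)).isNilpotent
    by_contra hne
    have hperf : commutator E = ⊤ := by
      apply map_injective E.subtype_injective
      rw [map_subtype_commutator, ← MonoidHom.range_eq_map, range_subtype]
      exact layer_commutator_self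
    have hlcs : ∀ m, (⊤ : Subgroup (E ⧸ W)).lowerCentralSeries m = ⊤ := by
      intro m
      induction m with
      | zero => rfl
      | succ m ih =>
        rw [Subgroup.lowerCentralSeries_succ, ih, ← map_top_of_surjective (QuotientGroup.mk' W)
          (QuotientGroup.mk'_surjective W), ← map_commutator, ← commutator_def, hperf]
    obtain ⟨m, hm⟩ := Subgroup.nilpotent_iff_lowerCentralSeries.mp hnil
    rw [hlcs m] at hm
    refine hne (eq_top_iff.mpr fun x _ => (QuotientGroup.eq_one_iff x).mp ?_)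
    exact mem_bot.mp (hm ▸ mem_top (x : E ⧸ W))
  have hle : Cfsg.pResidual p E ≤ C.subgroupOf E := by
    rw [Cfsg.pResidual, closure_le]
    intro e he
    refine h e e.2 ?_
    rw [Subgroup.orderOf_coe]
    exact fun hd => Nat.Prime.not_coprime_iff_dvd.mpr ⟨p, hp.out, hd, dvd_rfl⟩ he
  exact fun e he => hle (hR ▸ mem_top (⟨e, he⟩ : E))

variable {G : Type*} [Group G] [Finite G]

theorem normalizer_map_eq [IsSimpleGroup G] {A : Subgroup G} (hA : IsCoatom A) {Z : Subgroup A}
    (hZn : Z.Normal) (hZ : Z ≠ ⊥) : normalizer (Z.map A.subtype : Set G) = A := by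
  have hle : A ≤ normalizer (Z.map A.subtype : Set G) := fun a ha =>
    mem_normalizer_iff.mpr fun y => ⟨by
      rintro ⟨w, hw, rfl⟩
      exact ⟨⟨a, ha⟩ * w * ⟨a, ha⟩⁻¹, hZn.conj_mem w hw _, rfl⟩, by
      rintro ⟨w, hw, he⟩
      refine ⟨⟨a, ha⟩⁻¹ * w * ⟨a, ha⟩, by simpa using hZn.conj_mem w hw ⟨a, ha⟩⁻¹, ?_⟩
      simp only [map_mul, map_inv, coe_subtype] at he ⊢
      rw [he]; group⟩
  rcases hle.eq_or_lt with h | h
  · exact h.symm
  · exfalso
    have hn : (Z.map A.subtype).Normal := normalizer_eq_top_iff.mp (hA.2 _ h)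
    rcases hn.eq_bot_or_eq_top with h1 | h1
    · exact hZ ((map_eq_bot_iff_of_injective _ A.subtype_injective).mp h1)
    · exact hA.1 (top_le_iff.mp (h1.ge.trans (map_subtype_le Z)))

variable {A B : Subgroup G} {S : Subgroup A}

theorem opB_inter (hSB : S.map A.subtype ≤ B) (p : ℕ) [Fact p.Prime] :
    IsPGroup p (((Cfsg.pCore p B).map B.subtype).subgroupOf A) ∧
      S ≤ normalizer (((Cfsg.pCore p B).map B.subtype).subgroupOf A : Set A) ∧
      ∀ b ∈ B, b ∈ normalizer ((Cfsg.pCore p B).map B.subtype : Set G) := by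
  have hB : ∀ b ∈ B, b ∈ normalizer ((Cfsg.pCore p B).map B.subtype : Set G) := by
    have key : ∀ b ∈ B, ∀ y ∈ (Cfsg.pCore p B).map B.subtype,
        b * y * b⁻¹ ∈ (Cfsg.pCore p B).map B.subtype := by
      rintro b hb _ ⟨w, hw, rfl⟩
      exact ⟨⟨b, hb⟩ * w * ⟨b, hb⟩⁻¹, (inferInstance : (Cfsg.pCore p B).Normal).conj_mem w hw _, rfl⟩
    refine fun b hb => mem_normalizer_iff.mpr fun y => ⟨key b hb y, fun hy => ?_⟩
    have := key b⁻¹ (inv_mem hb) _ hy
    rwa [show b⁻¹ * (b * y * b⁻¹) * b⁻¹⁻¹ = y by group] at this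
  refine ⟨(Cores.pCore_isPGroup.map _).comap_subtype, fun s hs => mem_normalizer_iff.mpr fun w => ?_, hB⟩
  exact mem_normalizer_iff.mp (hB s (hSB ⟨s, hs, rfl⟩)) w

/-- Part (a). -/
theorem inf_eq_bot_of_not_dvd (h : Large S) (hSB : S.map A.subtype ≤ B) {q : ℕ} (hq : q.Prime)
    (hnd : ¬ q ∣ Nat.card (Cfsg.fittingSubgroup A)) :
    (Cfsg.pCore q B).map B.subtype ⊓ A = ⊥ := by
  have : Fact q.Prime := ⟨hq⟩
  obtain ⟨hR, hSR, -⟩ := opB_inter hSB q
  refine eq_bot_iff.mpr fun x hx => ?_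
  set x' : A := ⟨x, hx.2⟩ with hx'
  have hxR : x' ∈ ((Cfsg.pCore q B).map B.subtype).subgroupOf A := hx.1
  obtain ⟨hE, hP⟩ := h.commute_of_pgroup hR hSR hxR
  have hbot : Cfsg.pCore q A = ⊥ := by
    by_contra hne
    obtain ⟨n, hn⟩ := IsPGroup.iff_card.1 (Cores.pCore_isPGroup (p := q) (G := A))
    rcases n with _ | n
    · exact hne (card_eq_one.mp (by rw [hn, pow_zero]))
    · exact hnd ((hn ▸ dvd_pow_self q (Nat.succ_ne_zero n)).trans
        (card_dvd_of_le Cores.pCore_le_fittingSubgroup))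
  have hC : x' ∈ centralizer (Cfsg.generalizedFittingSubgroup A : Set A) := by
    rw [mem_centralizer_iff]
    intro w hw
    have hle : Cfsg.generalizedFittingSubgroup A ≤ centralizer ({x'} : Set A) := by
      rw [Cfsg.generalizedFittingSubgroup, Cores.fittingSubgroup_eq_iSup_pCore]
      refine sup_le (fun e he => mem_centralizer_singleton_iff.mpr (hE e he).symm.eq) (iSup_le fun t => ?_)
      by_cases hts : (t : ℕ) = q
      · rw [hts, hbot]; exact bot_le
      · exact fun u hu => mem_centralizer_singleton_iff.mpr (hP t t.2 hts u hu).symm.eq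
    exact mem_centralizer_singleton_iff.mp (hle hw)
  have hxF : x' ∈ Cfsg.fittingSubgroup A := by
    have := genFitting_normal (G := A)
    have hn : (Cfsg.generalizedFittingSubgroup A ⊓
        centralizer (Cfsg.generalizedFittingSubgroup A : Set A)).Normal := normal_inf_normal _ _
    refine Cores.le_fittingSubgroup hn ?_ ⟨centralizer_genFitting_le hC, hC⟩
    refine isNilpotent_of_commute fun a b => Subtype.ext ?_
    exact mem_centralizer_iff.mp b.2.2 a a.2.1
  have hxo : ¬ q ∣ orderOf x' := fun hd => hnd (hd.trans (Subgroup.orderOf_dvd_natCard _ hxF))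
  exact mem_bot.mpr (congrArg Subtype.val (eq_one_of_pgroup_of_coprime hR hxR hxo))
where
  isNilpotent_of_commute {H : Type _} [Group H] (hc : ∀ a b : H, a * b = b * a) :
      Group.IsNilpotent H :=
    letI : CommGroup H := { (inferInstance : Group H) with mul_comm := hc }
    inferInstance

/-- Part (b): `O_p(B)` commutes with `E(A)` and with `O_s(A)` for `s ≠ p`. -/
theorem pCore_le_centralizer [IsSimpleGroup G] (hA : IsCoatom A) (h : Large S)
    (hSB : S.map A.subtype ≤ B) {p : ℕ} (hp : p.Prime)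
    (hd : p ∣ Nat.card (Cfsg.fittingSubgroup A)) {r : G}
    (hr : r ∈ (Cfsg.pCore p B).map B.subtype) :
    Cfsg.layer A ≤ (centralizer ({r} : Set G)).subgroupOf A ∧
      ∀ s : ℕ, s.Prime → s ≠ p → Cfsg.pCore s A ≤ (centralizer ({r} : Set G)).subgroupOf A := by
  have hpf : Fact p.Prime := ⟨hp⟩
  obtain ⟨hR, hSR, hBR⟩ := opB_inter hSB p
  set R := (Cfsg.pCore p B).map B.subtype with hRdef
  set Z := Cfsg.pCore p A ⊓ centralizer (Cfsg.pCore p A : Set A) with hZ
  have hZS : Z ≤ S := pCore_center_le h p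
  have hNZ : normalizer (Z.map A.subtype : Set G) = A :=
    normalizer_map_eq hA (normal_inf_normal _ _) (pCore_center_ne_bot p (pCore_ne_bot_of_dvd_fitting hd))
  -- the `p'`-elements of `S` commuting with `Z` and acting trivially on `R ⊓ A` centralize `R`
  have haux : ∀ k : A, k ∈ S → ¬ p ∣ orderOf k → (∀ z ∈ Z, Commute k z) →
      (∀ w : A, (w : G) ∈ R → Commute k w) → ∀ v ∈ R, Commute (k : G) v := by
    intro k hkS hko hkZ hkw
    refine LocalEven.aXb_lemma (p := p) (P := R) (A := Z.map A.subtype) (Cores.pCore_isPGroup.map _)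
      ((Cores.pCore_isPGroup.to_le inf_le_left).map _) ?_ (hBR k (hSB ⟨k, hkS, rfl⟩))
      (by rwa [Subgroup.orderOf_coe]) ?_ ?_
    · rintro _ ⟨z, hz, rfl⟩
      exact hBR _ (hSB ⟨z, hZS hz, rfl⟩)
    · rintro _ ⟨z, hz, rfl⟩
      exact (hkZ z hz).map A.subtype
    · intro v hv hva
      have hvA : v ∈ A := hNZ ▸ (centralizer_le_normalizer _ (mem_centralizer_iff.mpr fun a ha =>
        (hva a ha).eq))
      exact (hkw ⟨v, hvA⟩ hv).map A.subtype
  have hE0 : Cfsg.layer A ≤ (centralizer ({r} : Set G)).subgroupOf A := by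
    refine layer_le_of_pPrime_elements (p := p) fun e he heo => mem_centralizer_singleton_iff.mpr ?_
    exact (haux e (h.layer_le he) heo
      (fun z hz => commute_layer_fitting he (Cores.pCore_le_fittingSubgroup hz.1))
      (fun w hw => ((h.commute_of_pgroup hR hSR (show w ∈ R.subgroupOf A from hw)).1 e he).symm) r hr).eq
  have hS0 : ∀ s : ℕ, s.Prime → s ≠ p → ∀ k ∈ S ⊓ Cfsg.pCore s A,
      k ∈ (centralizer ({r} : Set G)).subgroupOf A := by
    intro s hs hsp k hk
    have : Fact s.Prime := ⟨hs⟩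
    have hko : ¬ p ∣ orderOf k := by
      intro hpk
      obtain ⟨m, hm⟩ := IsPGroup.iff_card.1 (Cores.pCore_isPGroup (p := s) (G := A))
      have h1 : p ∣ s ^ m := hm ▸ hpk.trans (Subgroup.orderOf_dvd_natCard _ hk.2)
      exact hsp ((Nat.prime_dvd_prime_iff_eq hp hs).mp (hp.dvd_of_dvd_pow h1)).symm
    refine mem_centralizer_singleton_iff.mpr (haux k hk.1 hko
      (fun z hz => commute_pCore hsp hk.2 hz.1)
      (fun w hw => ((h.commute_of_pgroup hR hSR (show w ∈ R.subgroupOf A from hw)).2 s hs hsp k hk.2).symm)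
      r hr).eq
  -- `r ∈ A` as soon as something nontrivial is centralized
  have hin : ∀ Y : Subgroup A, Y.Normal → Y ≠ ⊥ → Y ≤ (centralizer ({r} : Set G)).subgroupOf A →
      r ∈ A := by
    intro Y hYn hY hYc
    rw [← normalizer_map_eq hA hYn hY]
    refine centralizer_le_normalizer _ (mem_centralizer_iff.mpr ?_)
    rintro _ ⟨y, hy, rfl⟩
    exact mem_centralizer_singleton_iff.mp (hYc hy)
  refine ⟨hE0, fun s hs hsp q hq => ?_⟩
  have : Fact s.Prime := ⟨hs⟩
  by_cases hsb : Cfsg.pCore s A = ⊥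
  · rw [hsb, mem_bot] at hq; rw [hq]; exact one_mem _
  have hrA : r ∈ A := hin _ (normal_inf_normal _ _) (pCore_center_ne_bot s hsb) fun z hz =>
    hS0 s hs hsp z ⟨pCore_center_le h s hz, hz.1⟩
  have := (h.commute_of_pgroup hR hSR (show (⟨r, hrA⟩ : A) ∈ R.subgroupOf A from hr)).2 s hs hsp q hq
  exact mem_centralizer_singleton_iff.mpr (congrArg Subtype.val this.symm.eq)

/-- The `p'`-elements of `F*` lie in the part generated by `E` and the other `O_s`. -/
theorem pPrime_mem_of_genFitting {p : ℕ} [Fact p.Prime] {C : Subgroup X}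
    (hE : Cfsg.layer X ≤ C) (hP : ∀ s : ℕ, s.Prime → s ≠ p → Cfsg.pCore s X ≤ C)
    {y : X} (hy : y ∈ Cfsg.generalizedFittingSubgroup X) (hyo : ¬ p ∣ orderOf y) : y ∈ C := by
  have := layer_normal (G := X)
  set K := Cfsg.layer X ⊔ ⨆ t : {t : Nat.Primes // (t : ℕ) ≠ p}, Cfsg.pCore (t.1 : ℕ) X with hK
  have hKn : K.Normal := by
    have : (⨆ t : {t : Nat.Primes // (t : ℕ) ≠ p}, Cfsg.pCore (t.1 : ℕ) X).Normal := by
      rw [iSup]; exact sSup_normal _ (by rintro _ ⟨t, rfl⟩; infer_instance)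
    exact sup_normal _ _
  have hKC : K ≤ C := sup_le hE (iSup_le fun t => hP _ t.1.2 t.2)
  have hle : Cfsg.generalizedFittingSubgroup X ≤ Cfsg.pCore p X ⊔ K := by
    rw [Cfsg.generalizedFittingSubgroup, Cores.fittingSubgroup_eq_iSup_pCore]
    refine sup_le (le_sup_of_le_right le_sup_left) (iSup_le fun t => ?_)
    by_cases htp : (t : ℕ) = p
    · rw [htp]; exact le_sup_left
    · exact le_sup_of_le_right (le_sup_of_le_right
        (le_iSup (fun t : {t : Nat.Primes // (t : ℕ) ≠ p} => Cfsg.pCore (t.1 : ℕ) X) ⟨t, htp⟩))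
  have h1 : y ∈ ((Cfsg.pCore p X ⊔ K : Subgroup X) : Set X) := hle hy
  rw [mul_normal] at h1
  obtain ⟨a, ha, b, hb, hab⟩ := Set.mem_mul.mp h1
  have h2 : QuotientGroup.mk' K a = QuotientGroup.mk' K y := by
    rw [← hab, map_mul, show QuotientGroup.mk' K b = 1 from (QuotientGroup.eq_one_iff b).mpr hb, mul_one]
  have h3 : QuotientGroup.mk' K y = 1 := by
    refine eq_one_of_pgroup_of_coprime ((Cores.pCore_isPGroup (p := p) (G := X)).map (QuotientGroup.mk' K))
      ⟨a, ha, h2⟩ fun hd => hyo (hd.trans (orderOf_map_dvd _ y))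
  exact hKC ((QuotientGroup.eq_one_iff y).mp h3)

end Cfsg.Agent.Bender
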